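import Mathlib
import Cfsg.Agent.TcData.SE7c.I56.Chk0

set_option autoImplicit false
set_option Elab.async false
set_option maxRecDepth 100000
set_option linter.all false

namespace Cfsg.Agent.TcData.SE7c.I56

open Cfsg.Spor Cfsg.Agent.Lib.TcFacts Cfsg.Agent.Lib.TcBits Cfsg.Agent.Lib.TcPres Cfsg.Agent.Lib.SchurDefs.E7c Cfsg.Agent.TcData.SE7c

theorem c0 : Block F al 0 256 56 := b0

end Cfsg.Agent.TcData.SE7c.I56
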